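import Mathlib
import Cfsg.Agent.Lib.Super.Chain
import Cfsg.Agent.Lib.PGroup.Basic

/-!
# Supersolvable groups and the converse of Lagrange's theorem.
-/

set_option autoImplicit false

namespace Cfsg.Agent.Lib.Super

open Cfsg Subgroup
open scoped Pointwise commutatorElement

universe u

/-- A supersolvable group has a subgroup of each order dividing its order. -/
theorem hasSubgroupOfEveryOrder_of_ss : ∀ (n : ℕ) {G : Type u} [Group G] [Finite G], Nat.card G = n →
    IsSupersolvable G → HasSubgroupOfEveryOrder G := by
  intro n
  induction n using Nat.strong_induction_on with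
  | _ n ih =>
    intro G _ _ hn hG d hd
    by_cases hnt : Nat.card G = 1
    · refine ⟨⊥, ?_⟩
      rw [hnt, Nat.dvd_one] at hd
      rw [hd, Subgroup.card_bot]
    have h1 : 1 < Nat.card G := by
      have : 0 < Nat.card G := Nat.card_pos
      omega
    have hntG : Nontrivial G := Finite.one_lt_card_iff_nontrivial.mp h1
    obtain ⟨N, hNn, hq⟩ := exists_normal_prime_of_ss hG
    have hcard := Subgroup.card_eq_card_quotient_mul_card_subgroup N
    have hlt : Nat.card (G ⧸ N) < n := by
      rw [← hn]
      exact card_quotient_lt N hq.one_lt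
    have hQ := ih _ hlt rfl (IsSupersolvable.quotient hG N)
    by_cases hqd : Nat.card N ∣ d
    · obtain ⟨d', rfl⟩ := hqd
      have hd' : d' ∣ Nat.card (G ⧸ N) := by
        rw [hcard, mul_comm] at hd
        exact Nat.dvd_of_mul_dvd_mul_right hq.pos hd
      obtain ⟨L, hL⟩ := hQ d' hd'
      refine ⟨L.comap (QuotientGroup.mk' N), ?_⟩
      have := Cfsg.Agent.Lib.Core.card_comap_of_surjective (QuotientGroup.mk' N)
        (QuotientGroup.mk'_surjective N) L
      rw [QuotientGroup.ker_mk', hL] at this
      exact this
    · have hcop : (Nat.card N).Coprime d := (Nat.Prime.coprime_iff_not_dvd hq).mpr hqd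
      have hd' : d ∣ Nat.card (G ⧸ N) := by
        rw [hcard] at hd
        exact hcop.symm.dvd_of_dvd_mul_right hd
      obtain ⟨L', hL'⟩ := hQ d hd'
      let L := L'.comap (QuotientGroup.mk' N)
      have hLc : Nat.card L = Nat.card N * d := by
        have := Cfsg.Agent.Lib.Core.card_comap_of_surjective (QuotientGroup.mk' N)
          (QuotientGroup.mk'_surjective N) L'
        rw [QuotientGroup.ker_mk', hL'] at this
        exact this
      have hNL : N ≤ L := by
        intro x hx
        show (x : G ⧸ N) ∈ L'
        rw [(QuotientGroup.eq_one_iff x).mpr hx]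
        exact L'.one_mem
      let N' := N.subgroupOf L
      have hN'n : N'.Normal := inferInstance
      have hN'c : Nat.card N' = Nat.card N :=
        Nat.card_congr (Subgroup.subgroupOfEquivOfLe hNL).toEquiv
      have hN'i : N'.index = d := by
        have h2 := N'.card_mul_index
        rw [hN'c, hLc] at h2
        exact Nat.eq_of_mul_eq_mul_left hq.pos h2
      obtain ⟨K, hK⟩ := Subgroup.exists_right_complement'_of_coprime (N := N') (by rw [hN'c, hN'i]; exact hcop)
      refine ⟨K.map L.subtype, ?_⟩
      rw [card_map_subtype]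
      have h3 := hK.card_mul
      rw [hN'c, hLc] at h3
      exact Nat.eq_of_mul_eq_mul_left hq.pos h3

theorem hasSubgroupOfEveryOrder_of_ss' {G : Type u} [Group G] [Finite G] (hG : IsSupersolvable G) :
    HasSubgroupOfEveryOrder G :=
  hasSubgroupOfEveryOrder_of_ss _ rfl hG

theorem HasSubgroupOfEveryOrder.of_equiv {A B : Type*} [Group A] [Group B] (e : A ≃* B)
    (h : HasSubgroupOfEveryOrder A) : HasSubgroupOfEveryOrder B := by
  intro d hd
  obtain ⟨L, hL⟩ := h d (by rwa [Nat.card_congr e.toEquiv])
  refine ⟨L.map e.toMonoidHom, ?_⟩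
  rw [Subgroup.card_map_of_injective e.injective, hL]

/-- Hereditary Lagrange passes to subgroups. -/
theorem hered_subgroup {G : Type*} [Group G] (h : ∀ H : Subgroup G, HasSubgroupOfEveryOrder H)
    (M : Subgroup G) : ∀ K : Subgroup M, HasSubgroupOfEveryOrder K := by
  intro K
  exact HasSubgroupOfEveryOrder.of_equiv (K.equivMapOfInjective M.subtype M.subtype_injective).symm
    (h (K.map M.subtype))

theorem hered_self {G : Type*} [Group G] (h : ∀ H : Subgroup G, HasSubgroupOfEveryOrder H) :
    HasSubgroupOfEveryOrder G :=
  HasSubgroupOfEveryOrder.of_equiv Subgroup.topEquiv (h ⊤)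

/-- If every subgroup has subgroups of all orders dividing its order, then the Sylow subgroup for the
largest prime is normal. -/
theorem sylow_normal_of_hered : ∀ (n : ℕ) {G : Type u} [Group G] [Finite G], Nat.card G = n →
    (∀ H : Subgroup G, HasSubgroupOfEveryOrder H) → ∀ (p : ℕ) [Fact p.Prime], p ∣ Nat.card G →
    (∀ q : ℕ, q.Prime → q ∣ Nat.card G → q ≤ p) → ∀ P : Sylow p G, (P : Subgroup G).Normal := by
  intro n
  induction n using Nat.strong_induction_on with
  | _ n ih =>
    intro G _ _ hn h p hpf hpd hmax P
    have hp : p.Prime := hpf.out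
    by_cases hq : ∃ q : ℕ, q.Prime ∧ q ∣ Nat.card G ∧ q ≠ p
    · obtain ⟨q, hq, hqd, hqp⟩ := hq
      have hqlt : q < p := lt_of_le_of_ne (hmax q hq hqd) hqp
      obtain ⟨M, hM⟩ := hered_self h (Nat.card G / q) (Nat.div_dvd_of_dvd hqd)
      have hMi : M.index = q := by
        have h1 := M.card_mul_index
        rw [hM] at h1
        have h2 : Nat.card G / q * q = Nat.card G := Nat.div_mul_cancel hqd
        have h3 : 0 < Nat.card G / q := Nat.div_pos (Nat.le_of_dvd Nat.card_pos hqd) hq.pos
        exact Nat.eq_of_mul_eq_mul_left h3 (h1.trans h2.symm)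
      have hMc : IsCoatom M := Cfsg.Agent.Lib.PGroup.isCoatom_of_index_prime (by rw [hMi]; exact hq)
      have hcardM : Nat.card G = Nat.card M * q := by
        rw [← hMi, M.card_mul_index]
      have hpM : p ∣ Nat.card M := by
        rw [hcardM] at hpd
        rcases (Nat.Prime.dvd_mul hp).mp hpd with h1 | h1
        · exact h1
        · exact absurd ((Nat.prime_dvd_prime_iff_eq hp hq).mp h1).symm hqp
      have hlt : Nat.card M < n := by
        rw [← hn, hcardM]
        have := hq.one_lt
        have : 0 < Nat.card M := Nat.card_pos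
        nlinarith
      obtain ⟨R⟩ : Nonempty (Sylow p M) := inferInstance
      have hRn : (R : Subgroup M).Normal := ih _ hlt rfl (hered_subgroup h M) p hpM
        (fun r hr hrd => hmax r hr (by rw [hcardM]; exact hrd.mul_right _)) R
      -- `R` in `G` is Sylow
      have hfac : (Nat.card G).factorization p = (Nat.card M).factorization p := by
        rw [hcardM, Nat.factorization_mul (Nat.card_pos.ne') hq.ne_zero]
        simp only [Finsupp.add_apply]
        rw [Nat.factorization_eq_zero_of_not_dvd
          (fun h1 => hqp ((Nat.prime_dvd_prime_iff_eq hp hq).mp h1).symm)]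
        rfl
      let R' : Sylow p G := Sylow.ofCard ((R : Subgroup M).map M.subtype) (by
        rw [card_map_subtype, hfac]
        exact R.card_eq_multiplicity)
      have hR'c : (R' : Subgroup G) = (R : Subgroup M).map M.subtype := Sylow.coe_ofCard _ _
      have hMN : M ≤ normalizer ((R' : Subgroup G) : Set G) := by
        intro x hx
        rw [Subgroup.mem_normalizer_iff, hR'c]
        intro y
        constructor
        · rintro ⟨z, hz, rfl⟩
          refine ⟨⟨x, hx⟩ * z * ⟨x, hx⟩⁻¹, hRn.conj_mem z hz _, ?_⟩
          simp
        · rintro ⟨z, hz, hzy⟩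
          refine ⟨⟨x, hx⟩⁻¹ * z * ⟨x, hx⟩, ?_, ?_⟩
          · have := hRn.conj_mem z hz ⟨x, hx⟩⁻¹
            rwa [inv_inv] at this
          · simp only [Subgroup.subtype_apply, Subgroup.coe_mul, Subgroup.coe_inv] at hzy ⊢
            rw [hzy]
            group
      have hnorm : (R' : Subgroup G).Normal := by
        by_contra hcon
        have hne : normalizer ((R' : Subgroup G) : Set G) ≠ ⊤ := by
          intro htop
          exact hcon (Subgroup.normalizer_eq_top_iff.mp htop)
        have heq : normalizer ((R' : Subgroup G) : Set G) = M := by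
          by_contra hne2
          exact hne (hMc.2 _ (lt_of_le_of_ne hMN (Ne.symm hne2)))
        have hcount : Nat.card (Sylow p G) = q := by
          rw [R'.card_eq_index_normalizer]
          show (normalizer ((R' : Subgroup G) : Set G)).index = q
          rw [heq, hMi]
        have hmod := card_sylow_modEq_one p G
        rw [hcount] at hmod
        have h1 : q % p = 1 % p := hmod
        rw [Nat.mod_eq_of_lt hqlt, Nat.mod_eq_of_lt hp.one_lt] at h1
        exact hq.one_lt.ne' h1
      have hsub : Unique (Sylow p G) := Sylow.unique_of_normal R' hnorm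
      rw [Subsingleton.elim P R']
      exact hnorm
    · -- `G` is a `p`-group
      push Not at hq
      have hGp : IsPGroup p G :=
        IsPGroup.of_card (Nat.eq_prime_pow_of_unique_prime_dvd Nat.card_pos.ne'
          (fun {d} hd hdd => hq d hd hdd))
      have : (P : Subgroup G) = ⊤ := (P.3 (hGp.to_subgroup ⊤) le_top).symm
      rw [this]
      infer_instance

end Cfsg.Agent.Lib.Super
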