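import Mathlib
import Cfsg.Agent.Lib.Super.Lagrange
import Cfsg.Agent.Lib.Core.MinNormal

/-!
# A finite group all of whose subgroups satisfy the converse of Lagrange's theorem is supersolvable.
-/

set_option autoImplicit false

namespace Cfsg.Agent.Lib.Super

open Cfsg Subgroup
open scoped Pointwise commutatorElement

universe u

/-- Normal subgroups below `P ⊓ Y`, `P` a normal `p`-subgroup and `Y` supersolvable with `Y ⊔ P = ⊤`,
are reachable. -/
theorem ssChain_of_le : ∀ (n : ℕ) {G : Type u} [Group G] [Finite G], Nat.card G = n →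
    ∀ (p : ℕ) [Fact p.Prime] (P Y T : Subgroup G), P.Normal → IsPGroup p P → IsSupersolvable Y →
    Y ⊔ P = ⊤ → T.Normal → T ≤ P → T ≤ Y → SSChain G T := by
  intro n
  induction n using Nat.strong_induction_on with
  | _ n ih =>
    intro G _ _ hn p _ P Y T hPn hPp hY hsup hTn hTP hTY
    by_cases hT : T = ⊥
    · rw [hT]
      exact SSChain.bot
    obtain ⟨M, hMn, hMne, hMT, hmin⟩ := Cfsg.Agent.Lib.Core.exists_minimal_normal_le hTn hT
    have hMP : M ≤ P := hMT.trans hTP
    have hMY : M ≤ Y := hMT.trans hTY
    -- `M` centralizes `P`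
    have hMC : M ≤ centralizer (P : Set G) := by
      have hPnil : Group.IsNilpotent P := hPp.isNilpotent
      have hM1n : (M.subgroupOf P).Normal := inferInstance
      have hM1 : M.subgroupOf P ≠ ⊥ := by
        intro h
        apply hMne
        rw [eq_bot_iff]
        intro x hx
        have : (⟨x, hMP hx⟩ : P) ∈ M.subgroupOf P := hx
        rw [h, Subgroup.mem_bot] at this
        exact Subgroup.mem_bot.mpr (congrArg Subtype.val this)
      have h2 := Cfsg.Agent.Lib.Core.normal_inf_center_ne_bot (M.subgroupOf P) hM1
      rcases Subgroup.bot_or_exists_ne_one (M.subgroupOf P ⊓ center P) with h3 | ⟨x, ⟨hxM, hxZ⟩, hx1⟩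
      · exact absurd h3 h2
      have hCn : (M ⊓ centralizer (P : Set G)).Normal := by
        have : (centralizer (P : Set G)).Normal := inferInstance
        infer_instance
      rcases hmin _ hCn inf_le_left with h4 | h4
      · exfalso
        apply hx1
        have h5 : (x : G) ∈ M ⊓ centralizer (P : Set G) := by
          refine ⟨hxM, ?_⟩
          show (x : G) ∈ centralizer (P : Set G)
          rw [Subgroup.mem_centralizer_iff]
          intro y hy
          have := Subgroup.mem_center_iff.mp hxZ ⟨y, hy⟩
          exact congrArg Subtype.val this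
        rw [h4, Subgroup.mem_bot] at h5
        exact Subtype.ext h5
      · rw [← h4]
        exact inf_le_right
    -- `M` has prime order
    have hM2 : M.subgroupOf Y ≠ ⊥ := by
      intro h
      apply hMne
      rw [eq_bot_iff]
      intro x hx
      have : (⟨x, hMY hx⟩ : Y) ∈ M.subgroupOf Y := hx
      rw [h, Subgroup.mem_bot] at this
      exact Subgroup.mem_bot.mpr (congrArg Subtype.val this)
    obtain ⟨L₁, hL₁, hL₁n, hL₁p⟩ := exists_normal_prime_le_of_ss hY (M.subgroupOf Y) hM2
    let L := L₁.map Y.subtype
    have hLc : Nat.Prime (Nat.card L) := by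
      show Nat.Prime (Nat.card (L₁.map Y.subtype))
      rw [card_map_subtype]
      exact hL₁p
    have hLM : L ≤ M := by
      rintro _ ⟨z, hz, rfl⟩
      exact hL₁ hz
    have hLn : L.Normal := by
      rw [← Subgroup.normalizer_eq_top_iff, eq_top_iff, ← hsup, sup_le_iff]
      constructor
      · intro y hy
        rw [Subgroup.mem_normalizer_iff]
        intro z
        constructor
        · rintro ⟨w, hw, rfl⟩
          exact ⟨⟨y, hy⟩ * w * ⟨y, hy⟩⁻¹, hL₁n.conj_mem w hw _, by simp⟩
        · rintro ⟨w, hw, hwz⟩
          refine ⟨⟨y, hy⟩⁻¹ * w * ⟨y, hy⟩, ?_, ?_⟩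
          · have := hL₁n.conj_mem w hw ⟨y, hy⟩⁻¹
            rwa [inv_inv] at this
          · simp only [Subgroup.subtype_apply, Subgroup.coe_mul, Subgroup.coe_inv] at hwz ⊢
            rw [hwz]
            group
      · intro x hx
        rw [Subgroup.mem_normalizer_iff]
        intro z
        have hcomm : ∀ w ∈ L, x * w = w * x := by
          intro w hw
          have := Subgroup.mem_centralizer_iff.mp (hMC (hLM hw)) x hx
          exact this
        constructor
        · intro hz
          rw [hcomm z hz]
          simpa using hz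
        · intro h
          have h1 := hcomm _ h
          have : z = x * z * x⁻¹ := by
            have h2 : x * (x * z * x⁻¹) = (x * z * x⁻¹) * x := h1
            have h3 : x * z = z * x := by
              have h4 : x * (x * z * x⁻¹) * x⁻¹ = x * z * x⁻¹ := by
                rw [h2]
                group
              have h5 : x⁻¹ * (x * (x * z * x⁻¹) * x⁻¹) * x = x⁻¹ * (x * z * x⁻¹) * x := by rw [h4]
              have h6 : x⁻¹ * (x * (x * z * x⁻¹) * x⁻¹) * x = x * z * x⁻¹ := by group
              have h7 : x⁻¹ * (x * z * x⁻¹) * x = z := by group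
              rw [h6, h7] at h5
              calc x * z = x * z * x⁻¹ * x := by group
                _ = z * x := by rw [h5]
            rw [h3]
            group
          rw [this]
          exact h
    have hLeq : L = M := by
      rcases hmin L hLn hLM with h | h
      · exfalso
        rw [h, Subgroup.card_bot] at hLc
        exact Nat.not_prime_one hLc
      · exact h
    have hMc : Nat.Prime (Nat.card M) := hLeq ▸ hLc
    have hMcyc : IsCyclic M := isCyclic_of_prime_card (p := Nat.card M) (hp := ⟨hMc⟩) rfl
    have hMs : SSChain G M := ssChain_of_cyclic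
    -- pass to the quotient
    let π := QuotientGroup.mk' M
    have hπ : Function.Surjective π := QuotientGroup.mk'_surjective M
    have hlt : Nat.card (G ⧸ M) < n := by
      rw [← hn]
      exact card_quotient_lt M hMc.one_lt
    have hYb : IsSupersolvable (Y.map π) :=
      isSupersolvable_of_surjective (f := π.subgroupMap Y) (π.subgroupMap_surjective Y) hY
    have hsupb : Y.map π ⊔ P.map π = ⊤ := by
      rw [← Subgroup.map_sup, hsup, Subgroup.map_top_of_surjective _ hπ]
    have hind := ih _ hlt rfl p (P.map π) (Y.map π) (T.map π) (hPn.map π hπ) (hPp.map π) hYb hsupb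
      (hTn.map π hπ) (Subgroup.map_mono hTP) (Subgroup.map_mono hTY)
    have hker : SSChain G π.ker := by
      rw [QuotientGroup.ker_mk']
      exact hMs
    have := SSChain.comap_of_ker hπ hker hind
    rwa [Subgroup.comap_map_eq_self (by rw [QuotientGroup.ker_mk']; exact hMT)] at this

/-- **A finite group all of whose subgroups satisfy the converse of Lagrange's theorem is supersolvable.** -/
theorem isSupersolvable_of_hered : ∀ (n : ℕ) {G : Type u} [Group G] [Finite G], Nat.card G = n →
    (∀ H : Subgroup G, HasSubgroupOfEveryOrder H) → IsSupersolvable G := by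
  intro n
  induction n using Nat.strong_induction_on with
  | _ n ih =>
    intro G _ _ hn h
    by_cases hnt : Nat.card G = 1
    · have hs : Subsingleton G := (Nat.card_eq_one_iff_unique.mp hnt).1
      exact isSupersolvable_of_subsingleton
    have h1 : 1 < Nat.card G := by
      have : 0 < Nat.card G := Nat.card_pos
      omega
    obtain ⟨p, hp, hpd, hmax⟩ := exists_largest_prime h1
    haveI : Fact p.Prime := ⟨hp⟩
    obtain ⟨Y, hYc⟩ := hered_self h (Nat.card G / p) (Nat.div_dvd_of_dvd hpd)
    have hYi : Y.index = p := by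
      have h2 := Y.card_mul_index
      rw [hYc] at h2
      have h3 : Nat.card G / p * p = Nat.card G := Nat.div_mul_cancel hpd
      have h4 : 0 < Nat.card G / p := Nat.div_pos (Nat.le_of_dvd Nat.card_pos hpd) hp.pos
      exact Nat.eq_of_mul_eq_mul_left h4 (h2.trans h3.symm)
    have hYcoat : IsCoatom Y := Cfsg.Agent.Lib.PGroup.isCoatom_of_index_prime (by rw [hYi]; exact hp)
    have hcardY : Nat.card G = Nat.card Y * p := by
      rw [← hYi, Y.card_mul_index]
    have hlt : Nat.card Y < n := by
      rw [← hn, hcardY]
      have := hp.one_lt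
      have : 0 < Nat.card Y := Nat.card_pos
      nlinarith
    have hYs : IsSupersolvable Y := ih _ hlt rfl (hered_subgroup h Y)
    obtain ⟨P⟩ : Nonempty (Sylow p G) := inferInstance
    have hPn : (P : Subgroup G).Normal := sylow_normal_of_hered _ rfl h p hpd hmax P
    have hPp : IsPGroup p (P : Subgroup G) := P.isPGroup'
    have hPY : ¬ (P : Subgroup G) ≤ Y := by
      intro hle
      have h2 := Subgroup.index_dvd_of_le hle
      rw [hYi] at h2
      exact P.not_dvd_index h2
    have hsup : Y ⊔ P = ⊤ := hYcoat.2 _ (lt_of_le_of_ne le_sup_left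
      (fun h2 => hPY (by rw [h2]; exact le_sup_right)))
    let D : Subgroup G := Y ⊓ P
    have hDc : Nat.card P = Nat.card D * p := by
      have h2 := Cfsg.Agent.Lib.PGroup.card_inf_mul_relIndex (P : Subgroup G) Y
      have h3 : (P : Subgroup G).relIndex Y = (P : Subgroup G).index := by
        rw [← Subgroup.relIndex_sup_right, hsup, Subgroup.relIndex_top_right]
      rw [h3, inf_comm] at h2
      have h4 := (P : Subgroup G).card_mul_index
      have hidx : 0 < (P : Subgroup G).index := Nat.pos_of_ne_zero Subgroup.index_ne_zero_of_finite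
      apply Nat.eq_of_mul_eq_mul_right hidx
      show Nat.card (P : Subgroup G) * _ = Nat.card (Y ⊓ (P : Subgroup G) : Subgroup G) * p * _
      rw [h4, hcardY, ← h2]
      ring
    have hDP : D ≤ P := inf_le_right
    let D₁ : Subgroup P := D.subgroupOf P
    have hD₁c : Nat.card D₁ = Nat.card D := Nat.card_congr (Subgroup.subgroupOfEquivOfLe hDP).toEquiv
    have hD₁i : D₁.index = p := by
      have h2 := D₁.card_mul_index
      rw [hD₁c] at h2
      have h3 : Nat.card (P : Subgroup G) = Nat.card D * p := hDc
      rw [h3] at h2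
      exact Nat.eq_of_mul_eq_mul_left Nat.card_pos h2
    have hD₁n : D₁.Normal := Cfsg.Agent.Lib.PGroup.normal_of_index_eq_prime hPp hD₁i
    have hDn : D.Normal := by
      rw [← Subgroup.normalizer_eq_top_iff, eq_top_iff, ← hsup, sup_le_iff]
      constructor
      · intro y hy
        rw [Subgroup.mem_normalizer_iff]
        intro z
        constructor
        · rintro ⟨hz1, hz2⟩
          exact ⟨Y.mul_mem (Y.mul_mem hy hz1) (Y.inv_mem hy), hPn.conj_mem z hz2 y⟩
        · rintro ⟨hz1, hz2⟩
          refine ⟨?_, ?_⟩
          · have := Y.mul_mem (Y.mul_mem (Y.inv_mem hy) hz1) hy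
            have e : y⁻¹ * (y * z * y⁻¹) * y = z := by group
            rwa [e] at this
          · have := hPn.conj_mem _ hz2 y⁻¹
            have e : y⁻¹ * (y * z * y⁻¹) * y⁻¹⁻¹ = z := by group
            rwa [e] at this
      · intro x hx
        rw [Subgroup.mem_normalizer_iff]
        intro z
        constructor
        · intro hz
          have hzP : z ∈ (P : Subgroup G) := hz.2
          have := hD₁n.conj_mem ⟨z, hzP⟩ hz ⟨x, hx⟩
          exact this
        · intro hz
          have hzP : x * z * x⁻¹ ∈ (P : Subgroup G) := hz.2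
          let u : (P : Subgroup G) := ⟨x * z * x⁻¹, hzP⟩
          let v : (P : Subgroup G) := ⟨x, hx⟩
          have h5 : ((v⁻¹ * u * v⁻¹⁻¹ : (P : Subgroup G)) : G) ∈ D := hD₁n.conj_mem u hz v⁻¹
          have e : ((v⁻¹ * u * v⁻¹⁻¹ : (P : Subgroup G)) : G) = z := by
            show x⁻¹ * (x * z * x⁻¹) * x⁻¹⁻¹ = z
            group
          rwa [e] at h5
    have hDY : D ≤ Y := inf_le_left
    have hDs : SSChain G D :=
      ssChain_of_le (Nat.card G) rfl p (P : Subgroup G) Y D hPn hPp hYs hsup hDn hDP hDY
    -- step to `P`
    have hD₁coat : IsCoatom D₁ := Cfsg.Agent.Lib.PGroup.isCoatom_of_index_prime (by rw [hD₁i]; exact hp)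
    obtain ⟨x, hx⟩ : ∃ x : P, x ∉ D₁ := by
      by_contra hcon
      push Not at hcon
      exact hD₁coat.1 (eq_top_iff.mpr (fun y _ => hcon y))
    have hPs : SSChain G P := by
      refine SSChain.step (x : G) hDs hPn ?_
      apply le_antisymm
      · -- `D₁ ⊔ ⟨x⟩ = ⊤` in `P`
        have h2 : D₁ ⊔ Subgroup.zpowers x = ⊤ := hD₁coat.2 _ (lt_of_le_of_ne le_sup_left (fun h3 => hx (by
          rw [h3]
          exact Subgroup.mem_sup_right (Subgroup.mem_zpowers x))))
        intro y hy
        have h3 : (⟨y, hy⟩ : P) ∈ D₁ ⊔ Subgroup.zpowers x := by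
          rw [h2]
          exact Subgroup.mem_top _
        have h4 : (D₁ ⊔ Subgroup.zpowers x).map (P : Subgroup G).subtype ≤ D ⊔ Subgroup.zpowers (x : G) := by
          rw [Subgroup.map_sup, MonoidHom.map_zpowers]
          refine sup_le_sup ?_ le_rfl
          rintro _ ⟨w, hw, rfl⟩
          exact hw
        exact h4 ⟨⟨y, hy⟩, h3, rfl⟩
      · refine sup_le hDP ?_
        rw [Subgroup.zpowers_le]
        exact x.2
    -- the quotient `G ⧸ P`
    have hQ : IsSupersolvable (G ⧸ (P : Subgroup G)) := by
      apply isSupersolvable_of_surjective (f := (QuotientGroup.mk' (P : Subgroup G)).comp Y.subtype) ?_ hYs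
      intro q
      obtain ⟨g, rfl⟩ := QuotientGroup.mk'_surjective (P : Subgroup G) q
      have hg : g ∈ Y ⊔ (P : Subgroup G) := by
        rw [hsup]
        exact Subgroup.mem_top g
      obtain ⟨y, hy, z, hz, rfl⟩ := Subgroup.mem_sup_of_normal_right.mp hg
      refine ⟨⟨y, hy⟩, ?_⟩
      simp only [MonoidHom.comp_apply, Subgroup.subtype_apply, QuotientGroup.mk'_apply]
      rw [QuotientGroup.eq]
      simpa using hz
    exact isSupersolvable_of_quotient hPs hQ

end Cfsg.Agent.Lib.Super
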