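import Mathlib
import Cfsg.Agent.Lib.Super.Chain
import Cfsg.Agent.Lib.Hall.Frobenius3

/-!
# Groups all of whose maximal subgroups have prime index: the Sylow subgroup for the largest prime
is normal, and the group is solvable.
-/

set_option autoImplicit false

namespace Cfsg.Agent.Lib.Super

open Cfsg Subgroup
open scoped Pointwise commutatorElement

universe u

/-- If all maximal subgroups have prime index, the Sylow subgroup for the largest prime is normal. -/
theorem sylow_normal_of_prime_index {G : Type*} [Group G] [Finite G]
    (h : ∀ M : Subgroup G, IsCoatom M → M.index.Prime) (p : ℕ) [hpf : Fact p.Prime]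
    (hmax : ∀ q : ℕ, q.Prime → q ∣ Nat.card G → q ≤ p) (P : Sylow p G) : (P : Subgroup G).Normal := by
  have hp : p.Prime := hpf.out
  by_contra hcon
  have hne : normalizer ((P : Subgroup G) : Set G) ≠ ⊤ := fun htop =>
    hcon (Subgroup.normalizer_eq_top_iff.mp htop)
  obtain ⟨M, hM, hNM⟩ := (eq_top_or_exists_le_coatom (normalizer ((P : Subgroup G) : Set G))).resolve_left hne
  have hq := h M hM
  have hqd : M.index ∣ Nat.card G := Subgroup.index_dvd_card M
  have hPM : (P : Subgroup G) ≤ M := Subgroup.le_normalizer.trans hNM
  let P₀ : Sylow p M := P.subtype hPM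
  have h1 : Nat.card (Sylow p M) ≡ 1 [MOD p] := card_sylow_modEq_one p M
  have h2 : Nat.card (Sylow p G) ≡ 1 [MOD p] := card_sylow_modEq_one p G
  have h3 : Nat.card (Sylow p M) = (normalizer ((P : Subgroup G) : Set G)).relIndex M := by
    rw [P₀.card_eq_index_normalizer]
    show (normalizer (((P₀ : Subgroup M) : Set M))).index = _
    have : (P₀ : Subgroup M) = (P : Subgroup G).subgroupOf M := rfl
    rw [this, ← Subgroup.subgroupOf_normalizer_eq hPM]
    rfl
  have h4 : Nat.card (Sylow p G) = (normalizer ((P : Subgroup G) : Set G)).index :=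
    P.card_eq_index_normalizer
  have h5 := Subgroup.relIndex_mul_index hNM
  rw [← h3, ← h4] at h5
  have h6 : M.index ≡ 1 [MOD p] := by
    have h7 : Nat.card (Sylow p M) * M.index ≡ 1 * M.index [MOD p] := Nat.ModEq.mul_right _ h1
    rw [h5, one_mul] at h7
    exact h7.symm.trans h2
  have hle := hmax _ hq hqd
  rcases hle.lt_or_eq with hlt | heq
  · have h7 : M.index % p = 1 % p := h6
    rw [Nat.mod_eq_of_lt hlt, Nat.mod_eq_of_lt hp.one_lt] at h7
    exact hq.one_lt.ne' h7
  · have h7 : M.index % p = 1 % p := h6
    rw [heq, Nat.mod_self, Nat.mod_eq_of_lt hp.one_lt] at h7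
    omega

/-- The property passes to quotients. -/
theorem prime_index_quotient {G : Type*} [Group G]
    (h : ∀ M : Subgroup G, IsCoatom M → M.index.Prime) (N : Subgroup G) [N.Normal] :
    ∀ M : Subgroup (G ⧸ N), IsCoatom M → M.index.Prime := by
  intro M hM
  have h1 := h _ (Subgroup.isCoatom_comap_of_surjective (QuotientGroup.mk'_surjective N) hM)
  rwa [Subgroup.index_comap_of_surjective M (QuotientGroup.mk'_surjective N)] at h1

/-- **A finite group in which every maximal subgroup has prime index is solvable.** -/
theorem isSolvable_of_prime_index : ∀ (n : ℕ) {G : Type u} [Group G] [Finite G], Nat.card G = n →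
    (∀ M : Subgroup G, IsCoatom M → M.index.Prime) → Group.IsSolvable G := by
  intro n
  induction n using Nat.strong_induction_on with
  | _ n ih =>
    intro G _ _ hn h
    by_cases hnt : Nat.card G = 1
    · have hs : Subsingleton G := (Nat.card_eq_one_iff_unique.mp hnt).1
      infer_instance
    have h1 : 1 < Nat.card G := by
      have : 0 < Nat.card G := Nat.card_pos
      omega
    obtain ⟨p, hp, hpd, hmax⟩ := exists_largest_prime h1
    haveI : Fact p.Prime := ⟨hp⟩
    obtain ⟨P⟩ : Nonempty (Sylow p G) := inferInstance
    have hPn : (P : Subgroup G).Normal := sylow_normal_of_prime_index h p hmax P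
    have hPs : Group.IsSolvable (P : Subgroup G) := by
      have : Group.IsNilpotent (P : Subgroup G) := P.isPGroup'.isNilpotent
      infer_instance
    have hPc : 1 < Nat.card (P : Subgroup G) := by
      have := P.dvd_card_of_dvd_card hpd
      exact lt_of_lt_of_le hp.one_lt (Nat.le_of_dvd Nat.card_pos this)
    have hlt : Nat.card (G ⧸ (P : Subgroup G)) < n := by
      rw [← hn]
      exact card_quotient_lt _ hPc
    exact Cfsg.Agent.Lib.Hall.isSolvable_of_normal (P : Subgroup G) hPs
      (ih _ hlt rfl (prime_index_quotient h _))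

end Cfsg.Agent.Lib.Super
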