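import Mathlib
import Cfsg.Agent.Lib.Super.HuppertAux
import Cfsg.Agent.Lib.Super.PrimeIndex
import Cfsg.Agent.Lib.Super.Basic
import Cfsg.Agent.Lib.Hall.Gaschutz2
import Cfsg.Agent.Lib.Hall.CoprimeLemmas
import Cfsg.Agent.Lib.Core.MinNormal2

/-!
# Huppert's theorem: a finite group all of whose maximal subgroups have prime index is supersolvable.
-/

set_option autoImplicit false

namespace Cfsg.Agent.Lib.Super

open Cfsg Subgroup Cfsg.Agent.Lib.Core
open scoped Pointwise commutatorElement IsMulCommutative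

universe u

variable {G : Type u} [Group G] [Finite G]

/-- Case: `N` is not in the Frattini subgroup of the Sylow subgroup. -/
theorem huppert_case_one (h : ∀ M : Subgroup G, IsCoatom M → M.index.Prime) {p : ℕ} [hp : Fact p.Prime]
    (P : Sylow p G) [hPn : (P : Subgroup G).Normal] (N : Subgroup G) [hNn : N.Normal] (hNP : N ≤ P)
    (hN1 : N ≠ ⊥) (hNab : IsMulCommutative N)
    (hmin : ∀ M : Subgroup G, M.Normal → M ≤ N → M = ⊥ ∨ M = N)
    (hΦ : ¬ N.subgroupOf (P : Subgroup G) ≤ frattini (P : Subgroup G)) : (Nat.card N).Prime := by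
  classical
  let A := N.subgroupOf (P : Subgroup G)
  have hAn : A.Normal := Subgroup.normal_subgroupOf
  have hAab : IsMulCommutative A :=
    ⟨⟨fun a b => Subtype.ext (Subtype.ext (by
      show ((a : (P : Subgroup G)) : G) * ((b : (P : Subgroup G)) : G) = ((b : (P : Subgroup G)) : G) * ((a : (P : Subgroup G)) : G)
      exact congrArg Subtype.val (hNab.is_comm.comm ⟨_, a.2⟩ ⟨_, b.2⟩)))⟩⟩
  let W : Subgroup G := (frattini (P : Subgroup G)).map (P : Subgroup G).subtype
  have hWn : W.Normal := ConjAct.normal_of_characteristic_of_normal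
  have hNW : N ⊓ W = ⊥ := by
    rcases hmin (N ⊓ W) inferInstance inf_le_left with h1 | h1
    · exact h1
    · exfalso
      apply hΦ
      intro x hx
      have h2 : (x : G) ∈ N ⊓ W := by
        rw [h1]
        exact hx
      obtain ⟨y, hy, hyx⟩ := h2.2
      have : y = x := Subtype.ext hyx
      rwa [← this]
  have hinf : A ⊓ frattini (P : Subgroup G) = ⊥ := by
    rw [eq_bot_iff]
    rintro x ⟨hx1, hx2⟩
    have h2 : (x : G) ∈ N ⊓ W := ⟨hx1, ⟨x, hx2, rfl⟩⟩
    rw [hNW, Subgroup.mem_bot] at h2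
    rw [Subgroup.mem_bot]
    exact Subtype.ext h2
  obtain ⟨X, hX⟩ := exists_complement_of_inf_frattini_eq_bot A hAab hinf
  let X' : Subgroup G := X.map (P : Subgroup G).subtype
  have hpg : IsPGroup p N := P.isPGroup'.to_le hNP
  obtain ⟨k, hk⟩ := IsPGroup.iff_card.mp hpg
  have hcop : (Nat.card N).Coprime (P : Subgroup G).index := by
    rw [hk]
    apply Nat.Coprime.pow_left
    exact (Nat.Prime.coprime_iff_not_dvd hp.out).mpr P.not_dvd_index
  have hAK : X' ⊓ N = ⊥ := by
    rw [eq_bot_iff]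
    rintro y ⟨⟨x, hx, rfl⟩, hy⟩
    have h2 : x ∈ A ⊓ X := ⟨hy, hx⟩
    rw [disjoint_iff.mp hX.disjoint, Subgroup.mem_bot] at h2
    rw [h2, Subgroup.mem_bot]
    rfl
  have hKA : N ⊔ X' = P := by
    apply le_antisymm
    · refine sup_le hNP ?_
      rintro _ ⟨x, -, rfl⟩
      exact x.2
    · intro y hy
      have h2 : (⟨y, hy⟩ : (P : Subgroup G)) ∈ A ⊔ X := by
        rw [hX.sup_eq_top]
        trivial
      obtain ⟨a, ha, x, hx, hax⟩ := Subgroup.mem_sup_of_normal_left.mp h2
      have h3 : y = (a : G) * (x : G) := by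
        have := congrArg Subtype.val hax
        simpa using this.symm
      rw [h3]
      exact Subgroup.mul_mem _ (Subgroup.mem_sup_left ha) (Subgroup.mem_sup_right ⟨x, hx, rfl⟩)
  obtain ⟨H, hH⟩ := Cfsg.Agent.Lib.Hall.gaschutz_exists (K := N) (U := (P : Subgroup G)) hNP hcop X' hAK hKA
  have hHne : H ≠ ⊤ := by
    rintro rfl
    have := hH.disjoint
    rw [disjoint_top] at this
    exact hN1 this
  obtain ⟨M, hM, hHM⟩ := (eq_top_or_exists_le_coatom H).resolve_left hHne
  have hNM : ¬ N ≤ M := by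
    intro h2
    apply hM.1
    rw [eq_top_iff, ← hH.sup_eq_top]
    exact sup_le h2 hHM
  have hsup : N ⊔ M = ⊤ := by
    rw [eq_top_iff, ← hH.sup_eq_top]
    exact sup_le_sup_left hHM N
  have hn : (N ⊓ M).Normal := inf_normal_of_abelian hNab hsup
  have hinf2 : N ⊓ M = ⊥ := by
    rcases hmin _ hn inf_le_left with h2 | h2
    · exact h2
    · exact absurd (inf_eq_left.mp h2) hNM
  have hc := isComplement'_of_inf_sup hinf2 hsup
  rw [← hc.index_eq_card]
  exact h M hM

/-- Case: `N` is in the Frattini subgroup of the Sylow subgroup. -/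
theorem huppert_case_two {p : ℕ} [hp : Fact p.Prime]
    (P : Sylow p G) [hPn : (P : Subgroup G).Normal] (N : Subgroup G) [hNn : N.Normal] (hNP : N ≤ P)
    (hN1 : N ≠ ⊥) (hNab : IsMulCommutative N) (hNp : ∀ x ∈ N, x ^ p = 1)
    (hmin : ∀ M : Subgroup G, M.Normal → M ≤ N → M = ⊥ ∨ M = N)
    (hSS : IsSupersolvable (G ⧸ N))
    (hΦ : N.subgroupOf (P : Subgroup G) ≤ frattini (P : Subgroup G)) : (Nat.card N).Prime := by
  classical
  have hpp := hp.out
  let π := QuotientGroup.mk' N
  have hπ : Function.Surjective π := QuotientGroup.mk'_surjective N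
  -- Step 1
  have hgood : ∀ y : G, (orderOf y).Coprime p → (y ∈ commutator G ∨ ∃ a : G, y = a ^ (p - 1)) →
      ∀ n ∈ N, y * n * y⁻¹ = n := by
    intro y hy hg n hn
    have hord : (orderOf (π y)).Coprime p :=
      Nat.Coprime.coprime_dvd_left (orderOf_map_dvd π y) hy
    have hg' : π y ∈ commutator (G ⧸ N) ∨ ∃ a : G ⧸ N, π y = a ^ (p - 1) := by
      rcases hg with h1 | ⟨a, ha⟩
      · left
        have h2 : π y ∈ (commutator G).map π := Subgroup.mem_map_of_mem _ h1
        have h3 : (commutator G).map π ≤ commutator (G ⧸ N) := by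
          change (⁅(⊤ : Subgroup G), (⊤ : Subgroup G)⁆).map π ≤ ⁅(⊤ : Subgroup (G ⧸ N)), ⊤⁆
          rw [Subgroup.map_commutator]
          exact Subgroup.commutator_mono le_top le_top
        exact h3 h2
      · right
        exact ⟨π a, by rw [ha, map_pow]⟩
    have hbar := centralizes_of_good _ (G ⧸ N) rfl hSS p hpp ((P : Subgroup G).map π) (hPn.map π hπ)
      (P.isPGroup'.map π) (π y) hord hg'
    have hcent : Subgroup.zpowers y ≤ centralizer ((P : Subgroup G) : Set G) := by
      apply Cfsg.Agent.Lib.Hall.le_centralizer_of_frattini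
      · rw [Subgroup.normalizer_eq_top_iff.mpr hPn]
        exact le_top
      · rw [Nat.card_zpowers]
        obtain ⟨m, hm⟩ := IsPGroup.iff_card.mp P.isPGroup'
        have h1 : Nat.card (frattini (P : Subgroup G)) ∣ p ^ m := by
          rw [← hm]
          exact Subgroup.card_subgroup_dvd_card _
        exact Nat.Coprime.coprime_dvd_right h1 (Nat.Coprime.pow_right _ hy)
      · intro a ha k hk
        obtain ⟨i, rfl⟩ := Subgroup.mem_zpowers_iff.mp ha
        have h1 : Commute (π y) (π k) := by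
          rw [Commute, SemiconjBy]
          have h2 := hbar (π k) (Subgroup.mem_map_of_mem _ hk)
          calc π y * π k = (π y * π k * (π y)⁻¹) * π y := by group
            _ = π k * π y := by rw [h2]
        have h2 : Commute (π (y ^ i)) (π k) := by
          rw [map_zpow]
          exact h1.zpow_left i
        have h3 : y ^ i * k * (y ^ i)⁻¹ * k⁻¹ ∈ N := by
          rw [← QuotientGroup.eq_one_iff]
          have h4 : π (y ^ i * k * (y ^ i)⁻¹ * k⁻¹) = 1 := by
            rw [map_mul, map_mul, map_mul, map_inv, map_inv, h2.eq]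
            group
          exact h4
        have h5 := hΦ (show (⟨_, hNP h3⟩ : (P : Subgroup G)) ∈ N.subgroupOf (P : Subgroup G) from h3)
        exact ⟨_, h5, rfl⟩
    have h1 := Subgroup.mem_centralizer_iff.mp (hcent (Subgroup.mem_zpowers y)) n (hNP hn)
    rw [← h1]
    group
  -- Step 2
  have hPN : ∀ z ∈ (P : Subgroup G), ∀ n ∈ N, z * n * z⁻¹ = n := by
    have hnil : Group.IsNilpotent (P : Subgroup G) := P.isPGroup'.isNilpotent
    let A := N.subgroupOf (P : Subgroup G)
    have hAn : A.Normal := Subgroup.normal_subgroupOf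
    have hA1 : A ≠ ⊥ := by
      intro h1
      apply hN1
      rw [eq_bot_iff]
      intro x hx
      have h2 : (⟨x, hNP hx⟩ : (P : Subgroup G)) ∈ A := hx
      rw [h1, Subgroup.mem_bot] at h2
      rw [Subgroup.mem_bot]
      exact congrArg Subtype.val h2
    have h1 := normal_inf_center_ne_bot A hA1
    let W : Subgroup G := (center (P : Subgroup G)).map (P : Subgroup G).subtype
    have hWn : W.Normal := ConjAct.normal_of_characteristic_of_normal
    have hNW : N ≤ W := by
      rcases hmin (N ⊓ W) inferInstance inf_le_left with h2 | h2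
      · exfalso
        apply h1
        rw [eq_bot_iff]
        rintro x ⟨hx1, hx2⟩
        have h3 : (x : G) ∈ N ⊓ W := ⟨hx1, ⟨x, hx2, rfl⟩⟩
        rw [h2, Subgroup.mem_bot] at h3
        rw [Subgroup.mem_bot]
        exact Subtype.ext h3
      · exact inf_eq_left.mp h2
    intro z hz n hn
    obtain ⟨c, hc, rfl⟩ := hNW hn
    have h2 := Subgroup.mem_center_iff.mp hc ⟨z, hz⟩
    have h3 := congrArg Subtype.val h2
    simp only [Subgroup.coe_mul] at h3
    simp only [Subgroup.subtype_apply]
    rw [h3]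
    group
  -- Step 3
  have hact : ∀ c : G, (c ∈ commutator G ∨ ∃ a : G, c = a ^ (p - 1)) → ∀ n ∈ N, c * n * c⁻¹ = n := by
    intro c hc n hn
    obtain ⟨k, m, hm, hkm⟩ := Nat.exists_eq_pow_mul_and_not_dvd (n := orderOf c) (orderOf_pos c).ne' p hpp.ne_one
    have hcop : (p ^ k).Coprime m := Nat.Coprime.pow_left _ ((Nat.Prime.coprime_iff_not_dvd hpp).mpr hm)
    have hbez := Nat.gcd_eq_gcd_ab (p ^ k) m
    rw [hcop] at hbez
    set A := Nat.gcdA (p ^ k) m
    set B := Nat.gcdB (p ^ k) m
    have hc1 : c = c ^ ((p ^ k : ℕ) * A) * c ^ ((m : ℤ) * B) := by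
      rw [← zpow_add, ← hbez]
      simp
    set y := c ^ ((p ^ k : ℕ) * A) with hy
    set z := c ^ ((m : ℤ) * B) with hz
    have hcord : c ^ (((p ^ k : ℕ) : ℤ) * (m : ℤ)) = 1 := by
      have h1 : (((p ^ k : ℕ) : ℤ) * (m : ℤ)) = ((orderOf c : ℕ) : ℤ) := by rw [hkm]; push_cast; ring
      rw [h1, zpow_natCast, pow_orderOf_eq_one]
    have hym : y ^ m = 1 := by
      rw [hy, ← zpow_natCast, ← zpow_mul]
      have h1 : ((p ^ k : ℕ) : ℤ) * A * (m : ℤ) = (((p ^ k : ℕ) : ℤ) * (m : ℤ)) * A := by ring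
      rw [h1, zpow_mul, hcord, one_zpow]
    have hzk : z ^ (p ^ k) = 1 := by
      rw [hz, ← zpow_natCast, ← zpow_mul]
      have h1 : (m : ℤ) * B * ((p ^ k : ℕ) : ℤ) = (((p ^ k : ℕ) : ℤ) * (m : ℤ)) * B := by ring
      rw [h1, zpow_mul, hcord, one_zpow]
    have hyord : (orderOf y).Coprime p := by
      have h1 : orderOf y ∣ m := orderOf_dvd_of_pow_eq_one hym
      exact Nat.Coprime.coprime_dvd_left h1 (Nat.Coprime.symm ((Nat.Prime.coprime_iff_not_dvd hpp).mpr hm))
    have hyg : y ∈ commutator G ∨ ∃ a : G, y = a ^ (p - 1) := by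
      rcases hc with h1 | ⟨a, ha⟩
      · left
        exact Subgroup.zpow_mem _ h1 _
      · right
        refine ⟨a ^ ((p ^ k : ℕ) * A), ?_⟩
        rw [hy, ha, ← zpow_natCast, ← zpow_natCast, ← zpow_mul, ← zpow_mul, mul_comm]
    have hzP : z ∈ (P : Subgroup G) := by
      let ρ := QuotientGroup.mk' (P : Subgroup G)
      have h1 : orderOf (ρ z) ∣ p ^ k := by
        apply orderOf_dvd_of_pow_eq_one
        rw [← map_pow, hzk, map_one]
      have h2 : orderOf (ρ z) ∣ (P : Subgroup G).index := orderOf_dvd_natCard _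
      have h3 : (p ^ k).Coprime (P : Subgroup G).index :=
        Nat.Coprime.pow_left _ ((Nat.Prime.coprime_iff_not_dvd hpp).mpr P.not_dvd_index)
      have h4 : orderOf (ρ z) = 1 := Nat.eq_one_of_dvd_coprimes h3 h1 h2
      rw [orderOf_eq_one_iff] at h4
      exact (QuotientGroup.eq_one_iff z).mp h4
    have h5 := hPN z hzP n hn
    have h6 := hgood y hyord hyg n hn
    calc c * n * c⁻¹ = y * (z * n * z⁻¹) * y⁻¹ := by
          conv_lhs => rw [hc1]
          group
      _ = n := by rw [h5, h6]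
  -- Step 4
  have hcomm : ∀ a g n : G, n ∈ N → a * (g * n * g⁻¹) * a⁻¹ = g * (a * n * a⁻¹) * g⁻¹ := by
    intro a g n hn
    have h1 : ⁅a, g⁆ ∈ commutator G :=
      Subgroup.commutator_mem_commutator (Subgroup.mem_top a) (Subgroup.mem_top g)
    have hw : g * (a * n * a⁻¹) * g⁻¹ ∈ N := hNn.conj_mem _ (hNn.conj_mem _ hn a) g
    have h2 := hact ⁅a, g⁆ (Or.inl h1) _ hw
    rw [commutatorElement_def] at h2
    rw [← h2]
    group
  -- Step 5: every element acts as a scalar
  have hnt : Nontrivial N := (Subgroup.nontrivial_iff_ne_bot N).mpr hN1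
  have hscal : ∀ a : G, ∃ l : ℕ, ∀ n ∈ N, a * n * a⁻¹ = n ^ l := by
    intro a
    let f : N →* N := (MulAut.conjNormal a : MulAut N).toMonoidHom
    have hfit : ∀ (k : ℕ) (x : N), f^[k] x = (MulAut.conjNormal (a ^ k) : MulAut N) x := by
      intro k
      induction k with
      | zero =>
        intro x
        simp
      | succ k ih =>
        intro x
        rw [Function.iterate_succ_apply', ih, pow_succ', map_mul, MulAut.mul_apply]
        rfl
    have hf : ∀ x : N, f^[p] x = f x := by
      intro x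
      rw [hfit]
      obtain ⟨q, hq⟩ : ∃ q, p = q + 1 := ⟨p - 1, (Nat.sub_add_cancel hpp.one_lt.le).symm⟩
      apply Subtype.ext
      rw [MulAut.conjNormal_apply]
      have h1 := hact (a ^ (p - 1)) (Or.inr ⟨a, rfl⟩) x x.2
      have h2 : a ^ p = a * a ^ (p - 1) := by
        rw [hq]
        simp [pow_succ']
      rw [h2]
      have h3 : a * a ^ (p - 1) * (x : G) * (a * a ^ (p - 1))⁻¹ = a * (a ^ (p - 1) * x * (a ^ (p - 1))⁻¹) * a⁻¹ := by
        group
      rw [h3, h1]
      rfl
    have hNexp : ∀ x : N, x ^ p = 1 := fun x => Subtype.ext (by simpa using hNp x x.2)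
    obtain ⟨l, v, hv, hfv⟩ := exists_eigen_group hNexp f hf
    refine ⟨l, ?_⟩
    let E : Subgroup G :=
      { carrier := {n | n ∈ N ∧ a * n * a⁻¹ = n ^ l}
        one_mem' := ⟨N.one_mem, by simp⟩
        mul_mem' := by
          rintro x y ⟨hx, hxe⟩ ⟨hy, hye⟩
          refine ⟨N.mul_mem hx hy, ?_⟩
          have hc : Commute x y := congrArg Subtype.val (hNab.is_comm.comm ⟨x, hx⟩ ⟨y, hy⟩)
          rw [hc.mul_pow, ← hxe, ← hye]
          group
        inv_mem' := by
          rintro x ⟨hx, hxe⟩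
          refine ⟨N.inv_mem hx, ?_⟩
          rw [inv_pow, ← hxe]
          group }
    have hEn : E.Normal := by
      constructor
      rintro x ⟨hx, hxe⟩ g
      refine ⟨hNn.conj_mem x hx g, ?_⟩
      rw [hcomm a g x hx, hxe, conj_pow]
    have hEN : E ≤ N := fun x hx => hx.1
    have hEne : E ≠ ⊥ := by
      intro h1
      have h2 : (v : G) ∈ E := ⟨v.2, by
        have := congrArg Subtype.val hfv
        simpa [f, MulAut.conjNormal_apply] using this⟩
      rw [h1, Subgroup.mem_bot] at h2
      exact hv (Subtype.ext h2)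
    rcases hmin E hEn hEN with h1 | h1
    · exact absurd h1 hEne
    · intro n hn
      rw [← h1] at hn
      exact hn.2
  -- Step 6
  obtain ⟨v, hvN, hv1⟩ := (Subgroup.bot_or_exists_ne_one N).resolve_left hN1
  have hzn : (Subgroup.zpowers v).Normal := by
    constructor
    intro x hx g
    obtain ⟨i, rfl⟩ := Subgroup.mem_zpowers_iff.mp hx
    obtain ⟨l, hl⟩ := hscal g
    rw [← conj_zpow, hl v hvN]
    exact Subgroup.zpow_mem _ (Subgroup.pow_mem _ (Subgroup.mem_zpowers v) l) i
  have hzN : Subgroup.zpowers v ≤ N := Subgroup.zpowers_le.mpr hvN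
  rcases hmin _ hzn hzN with h1 | h1
  · rw [Subgroup.zpowers_eq_bot] at h1
    exact absurd h1 hv1
  · rw [← h1, Nat.card_zpowers, orderOf_eq_prime (hNp v hvN) hv1]
    exact hpp

/-- **Huppert's theorem.** -/
theorem huppert : ∀ (n : ℕ) (G : Type u) [Group G] [Finite G], Nat.card G = n →
    (∀ M : Subgroup G, IsCoatom M → M.index.Prime) → IsSupersolvable G := by
  intro n
  induction n using Nat.strong_induction_on with
  | _ n ih =>
    intro G _ _ hn h
    by_cases h1 : Nat.card G = 1
    · have : Subsingleton G := (Nat.card_eq_one_iff_unique.mp h1).1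
      exact isSupersolvable_of_subsingleton
    have hsol : Group.IsSolvable G := isSolvable_of_prime_index _ rfl h
    have h1' : 1 < Nat.card G := by
      have := Nat.card_pos (α := G)
      omega
    obtain ⟨p, hp, hpd, hmax⟩ := exists_largest_prime h1'
    have hf : Fact p.Prime := ⟨hp⟩
    obtain ⟨P⟩ : Nonempty (Sylow p G) := inferInstance
    have hPn : (P : Subgroup G).Normal := sylow_normal_of_prime_index h p hmax P
    have hP1 : (P : Subgroup G) ≠ ⊥ := P.ne_bot_of_dvd_card hpd
    obtain ⟨N, hNn, hN1, hNP, hNmin⟩ := exists_minimal_normal_le hPn hP1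
    have hNnn := hNn
    obtain ⟨hNab, q, hq, hNq⟩ := minimal_normal_elementary N hN1 hNmin
    have hqp : q = p := by
      obtain ⟨x, hx, hx1⟩ := (Subgroup.bot_or_exists_ne_one N).resolve_left hN1
      have hfq : Fact q.Prime := ⟨hq⟩
      have h2 : orderOf x = q := orderOf_eq_prime (hNq x hx) hx1
      obtain ⟨k, hk⟩ := P.isPGroup' ⟨x, hNP hx⟩
      have h3 : x ^ p ^ k = 1 := by simpa using congrArg Subtype.val hk
      have h4 : q ∣ p ^ k := by
        rw [← h2]
        exact orderOf_dvd_of_pow_eq_one h3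
      exact (Nat.prime_dvd_prime_iff_eq hq hp).mp (hq.dvd_of_dvd_pow h4)
    rw [hqp] at hNq
    have hlt : Nat.card (G ⧸ N) < n := by
      rw [← hn]
      have h2 := N.card_mul_index
      have h3 : Nat.card (G ⧸ N) = N.index := rfl
      rw [h3]
      have h4 : 0 < N.index := Nat.pos_of_ne_zero Subgroup.index_ne_zero_of_finite
      have h5 : 1 < Nat.card N := by
        have := Nat.card_pos (α := N)
        by_contra h6
        exact hN1 (Subgroup.eq_bot_of_card_eq N (by omega))
      nlinarith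
    have hSS : IsSupersolvable (G ⧸ N) := ih _ hlt (G ⧸ N) rfl (prime_index_quotient h N)
    have hprime : (Nat.card N).Prime := by
      by_cases hΦ : N.subgroupOf (P : Subgroup G) ≤ frattini (P : Subgroup G)
      · exact huppert_case_two P N hNP hN1 hNab hNq hNmin hSS hΦ
      · exact huppert_case_one h P N hNP hN1 hNab hNmin hΦ
    have : Fact (Nat.card N).Prime := ⟨hprime⟩
    have hcyc : IsCyclic N := isCyclic_of_prime_card rfl
    exact isSupersolvable_of_cyclic_normal N hSS

end Cfsg.Agent.Lib.Super
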